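import Cfsg.Agent.Jf18.M22
import Cfsg.Agent.J4Local60.EightData
import Cfsg.Agent.J4Type67.Module
import Cfsg.Agent.Solvable.Gaschuetz

/-!
An elementary abelian subgroup of order eight of `M22` whose normaliser has order divisible by
`2 ^ 6 * 7` has a complement in its normaliser.
-/

set_option autoImplicit false
set_option maxRecDepth 100000

namespace CfsgLib.Jf18.M22

open CfsgLib.J4Type67 CfsgLib.Mathieu CfsgLib.Mathieu.Code Cfsg
open scoped Pointwise IsMulCommutative

attribute [local irreducible] enc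

/-! ### Elements of order seven -/

theorem seven_not_commute {g a : M} (hg : orderOf g = 7) (ha : orderOf a = 2) :
    ¬ Commute g a := by
  classical
  intro hc
  set s := (g : Equiv.Perm GolayPt)
  set t := (a : Equiv.Perm GolayPt)
  have ho : orderOf s = 7 := (Subgroup.orderOf_coe g).trans hg
  have ht : orderOf t = 2 := (Subgroup.orderOf_coe a).trans ha
  have hst : s * t = t * s := congrArg Subtype.val hc.eq
  set S := fixedPts t
  have hScard : S.card = 8 := by
    have hpos : 0 < S.card := Finset.card_pos.2 ⟨i2p 0, mem_fixedPts.2 (fix_zero a)⟩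
    rcases exists_conj_involution (mem_M24 a) ht with ⟨h, -⟩ | ⟨h, -⟩
    · exact absurd h hpos.ne'
    · exact h
  have hinv : ∀ q ∈ S, s q ∈ S := fun q hq => by
    rw [mem_fixedPts] at hq ⊢
    rw [← Equiv.Perm.mul_apply, ← hst, Equiv.Perm.mul_apply, hq]
  have hall : S ⊆ fixedPts s := by
    intro q hq
    rw [mem_fixedPts]
    by_contra hne
    have hz0 : q ≠ i2p 0 := fun e => hne (e ▸ fix_zero g)
    have hz23 : q ≠ i2p 23 := fun e => hne (e ▸ fix_none g)
    have horb : (MulAction.orbit (Subgroup.zpowers s) q).ncard = 7 := by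
      have hdvd : Nat.card (MulAction.orbit (Subgroup.zpowers s) q) ∣ 7 := by
        refine ⟨Nat.card (MulAction.stabilizer (Subgroup.zpowers s) q), ?_⟩
        rw [← Nat.card_prod, Nat.card_congr
          (MulAction.orbitProdStabilizerEquivGroup (Subgroup.zpowers s) q), Nat.card_zpowers, ho]
      rcases (Nat.dvd_prime (by norm_num)).1 hdvd with h | h
      · exfalso
        have : Subsingleton (MulAction.orbit (Subgroup.zpowers s) q) :=
          (Nat.card_eq_one_iff_unique.1 h).1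
        exact hne (congrArg Subtype.val (Subsingleton.elim
          (⟨(⟨s, Subgroup.mem_zpowers s⟩ : Subgroup.zpowers s) • q, MulAction.mem_orbit _ _⟩ :
            MulAction.orbit (Subgroup.zpowers s) q) ⟨q, MulAction.mem_orbit_self q⟩))
      · rwa [Nat.card_coe_set_eq] at h
    have hsub : MulAction.orbit (Subgroup.zpowers s) q ⊆
        (((S.erase (i2p 0)).erase (i2p 23) : Finset GolayPt) : Set GolayPt) := by
      rintro _ ⟨⟨u, hu⟩, rfl⟩
      obtain ⟨k, -, rfl⟩ := Finset.mem_image.1 (mem_zpowers_iff_mem_range_orderOf.1 hu)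
      show (s ^ k) q ∈ _
      have hkS : (s ^ k) q ∈ S := by
        clear hu
        induction k with
        | zero => simpa using hq
        | succ k ih => rw [pow_succ', Equiv.Perm.mul_apply]; exact hinv _ ih
      refine Finset.mem_coe.2 (Finset.mem_erase.2
        ⟨fun e => hz23 ?_, Finset.mem_erase.2 ⟨fun e => hz0 ?_, hkS⟩⟩)
      · exact (s ^ k).injective (e.trans (Equiv.Perm.pow_apply_eq_self_of_apply_eq_self
          (fix_none g) k).symm)
      · exact (s ^ k).injective (e.trans (Equiv.Perm.pow_apply_eq_self_of_apply_eq_self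
          (fix_zero g) k).symm)
    have := Set.ncard_le_ncard hsub (Finset.finite_toSet _)
    have h0 : i2p 0 ∈ S := mem_fixedPts.2 (fix_zero a)
    have h23 : i2p 23 ∈ S.erase (i2p 0) :=
      Finset.mem_erase.2 ⟨by decide, mem_fixedPts.2 (fix_none a)⟩
    rw [horb, Set.ncard_coe_finset, Finset.card_erase_of_mem h23, Finset.card_erase_of_mem h0,
      hScard] at this
    omega
  obtain ⟨n, hn⟩ := card_fixedPts_prime (by norm_num) ho
  have h8 := hScard ▸ Finset.card_le_card hall
  have h1 := eq_one_of_nine_fixed (g := s) (mem_M24 g) (by omega)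
  rw [h1, orderOf_one] at ho
  norm_num at ho

/-! ### Certificates in the Sylow subgroup -/

/-- The codes of the Sylow subgroup commuting with every code of the list. -/
def centL (b : List (ℕ × ℕ)) : List ℕ :=
  (spanR certM22.pc).filter fun x => b.all fun p => cmpC x p.1 == cmpC p.1 x

/-- The codes of the Sylow subgroup normalising the span of the list. -/
def normL (b : List (ℕ × ℕ)) : List ℕ :=
  (spanR certM22.pc).filter fun x => b.all fun p => (spanR b).any fun e =>
    cmpC x p.1 == cmpC e x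

/-- The conditions on one listed subgroup. -/
def eightCheck (b : List (ℕ × ℕ)) : Bool :=
  pcOK b && b.all elOK && b.length == 3 && decide ((centL b).length ≤ 16) &&
    (decide ((centL b).length > 8) || decide ((normL b).length < 64) ||
      ((normL b).length == 64 && eightCompls.any fun k =>
        pcOK k && k.all elOK && k.length == 3 &&
          (spanR k).all fun x => (normL b).contains x && (x == idC || !(spanR b).contains x)))

theorem eight_ok : eightBases.all eightCheck = true := by decide +kernel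

/-- Commuting triples of involutions lie in a listed subgroup. -/
def coverCheck (I : List ℕ) (L : List (List ℕ)) : Bool :=
  I.all fun a => (I.filter fun b => b != a && cmpC a b == cmpC b a).all fun b =>
    ((I.filter fun b => b != a && cmpC a b == cmpC b a).filter fun c =>
      c != b && cmpC b c == cmpC c b && c != cmpC a b).all fun c =>
      L.any fun E => E.contains a && E.contains b && E.contains c

theorem cover_ok : coverCheck invList (eightBases.map spanR) = true := by decide +kernel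

theorem exists_listed {A : Subgroup M} (hA : ∀ a ∈ A, a * a = 1) (hc : Nat.card A = 8)
    (hS : A ≤ syl) : ∃ b ∈ eightBases, A = sub b := by
  classical
  obtain ⟨-, -, -, -, -, -, h7, -, -, -, -⟩ := basis_ok
  have hpick : ∀ F : Finset M, F.card < 8 → ∃ a ∈ A, a ∉ F := by
    intro F hF
    by_contra! h
    have := Set.ncard_le_ncard (fun x hx => h x hx : (A : Set M) ⊆ (F : Set M)) F.finite_toSet
    rw [Set.ncard_coe_finset, ← Nat.card_coe_set_eq] at this
    exact absurd (hc ▸ this) (not_le.2 hF)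
  obtain ⟨a, ha, ha1⟩ := hpick {1} (by simp)
  obtain ⟨b, hb, hb1⟩ := hpick {1, a} (lt_of_le_of_lt Finset.card_le_two (by norm_num))
  obtain ⟨c, hc', hc1⟩ := hpick {1, a, b, a * b} (lt_of_le_of_lt Finset.card_le_four (by norm_num))
  simp only [Finset.mem_insert, Finset.mem_singleton, not_or] at ha1 hb1 hc1
  have hI : ∀ {x : M}, x ∈ A → x ≠ 1 → cm x ∈ invList := fun {x} hx h1 => by
    simp only [invList, List.mem_filter, Bool.and_eq_true, bne_iff_ne, beq_iff_eq, ne_eq]
    refine ⟨(mem_sub h7).1 (hS hx), fun h => h1 (cm_injective (h.trans cm_one.symm)), ?_⟩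
    rw [← cm_mul, hA x hx, cm_one]
  have hcm : ∀ {x y : M}, x ∈ A → y ∈ A → cmpC (cm x) (cm y) = cmpC (cm y) (cm x) := fun hx hy => by
    rw [← cm_mul, ← cm_mul, comm_of_sq hA hx hy]
  have hne : ∀ {x y : M}, x ≠ y → ¬ cm x = cm y := fun h e => h (cm_injective e)
  have h := cover_ok
  simp only [coverCheck, List.all_eq_true, List.mem_filter, Bool.and_eq_true, bne_iff_ne,
    beq_iff_eq, ne_eq, List.any_eq_true, List.mem_map, List.contains_eq_mem,
    decide_eq_true_eq] at h
  obtain ⟨_, ⟨e, he, rfl⟩, ⟨hea, heb⟩, hec⟩ := h (cm a) (hI ha ha1) (cm b)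
    ⟨hI hb hb1.1, hne hb1.2, hcm ha hb⟩ (cm c)
    ⟨⟨hI hc' hc1.1, hne hc1.2.1, hcm ha hc'⟩, ⟨hne hc1.2.2.1, hcm hb hc'⟩,
      fun e => hne hc1.2.2.2 (e.trans (cm_mul a b).symm)⟩
  have hok := List.all_eq_true.1 eight_ok e he
  simp only [eightCheck, Bool.and_eq_true, beq_iff_eq] at hok
  obtain ⟨⟨⟨⟨hpc, hel⟩, hlen⟩, -⟩, -⟩ := hok
  set B := Subgroup.closure ({a, b, c} : Set M)
  have hBA : B ≤ A := by
    rw [Subgroup.closure_le]; rintro x (rfl | rfl | rfl) <;> assumption
  have hBe : B ≤ sub e := by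
    rw [Subgroup.closure_le]; rintro x (rfl | rfl | rfl)
    exacts [(mem_sub hpc).2 hea, (mem_sub hpc).2 heb, (mem_sub hpc).2 hec]
  have hB : Nat.card B = 8 := by
    have hdvd : Nat.card B ∣ 8 := hc ▸ Subgroup.card_dvd_of_le hBA
    have h5 : 5 ≤ Nat.card B := by
      have hm : ∀ x ∈ ({a, b, c} : Set M), x ∈ B := fun x hx => Subgroup.subset_closure hx
      let f : Fin 5 → B := ![1, ⟨a, hm a (by simp)⟩, ⟨b, hm b (by simp)⟩,
        ⟨a * b, mul_mem (hm a (by simp)) (hm b (by simp))⟩, ⟨c, hm c (by simp)⟩]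
      have hab1 : a * b ≠ 1 := fun e => hb1.2 (by
        rw [← mul_one a, ← e, ← mul_assoc, hA a ha, one_mul])
      have hf : Function.Injective f := by
        intro i j hij
        have hv := congrArg Subtype.val hij
        fin_cases i <;> fin_cases j <;> first | rfl |
          (exfalso; simp [f] at hv; first
            | exact ha1 hv | exact ha1 hv.symm | exact hb1.1 hv | exact hb1.1 hv.symm
            | exact hb1.2 hv | exact hb1.2 hv.symm | exact hab1 hv | exact hab1 hv.symm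
            | exact hc1.1 hv | exact hc1.1 hv.symm | exact hc1.2.1 hv | exact hc1.2.1 hv.symm
            | exact hc1.2.2.1 hv | exact hc1.2.2.1 hv.symm
            | exact hc1.2.2.2 hv | exact hc1.2.2.2 hv.symm)
      simpa using Nat.card_le_card_of_injective f hf
    have := Nat.le_of_dvd (by norm_num) hdvd
    interval_cases hB : Nat.card B <;> first | rfl | omega
  refine ⟨e, he, ?_⟩
  rw [← Subgroup.eq_of_le_of_card_ge hBA (by rw [hB, hc]),
    Subgroup.eq_of_le_of_card_ge hBe (by rw [hB, card_sub hpc hel, hlen]; norm_num)]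

theorem natCard_le_of_codes {K : Subgroup M} {l : List ℕ} (h : ∀ x ∈ K, cm x ∈ l) :
    Nat.card K ≤ l.length := by
  classical
  have := Nat.card_le_card_of_injective
    (fun x : K => (⟨cm x.1, List.mem_toFinset.2 (h _ x.2)⟩ : l.toFinset))
    (fun a b e => Subtype.ext (cm_injective (congrArg Subtype.val e)))
  rw [Nat.card_eq_finsetCard] at this
  exact this.trans (List.toFinset_card_le _)

theorem le_codes {b : List (ℕ × ℕ)} (hb : pcOK b = true) (hb' : b.all elOK = true) {x : M}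
    (hx : x ∈ syl) :
    ((∀ a ∈ sub b, Commute x a) → cm x ∈ centL b) ∧
      ((∀ a ∈ sub b, x * a * x⁻¹ ∈ sub b) → cm x ∈ normL b) := by
  obtain ⟨-, -, -, -, -, -, h7, -, -, -, -⟩ := basis_ok
  have hmem : ∀ p ∈ b, el p ∈ sub b := fun p hp => by
    have hok := List.all_eq_true.1 hb' p hp
    exact Subgroup.subset_closure (show code (el p : Equiv.Perm GolayPt) ∈ b.map Prod.fst from
      List.mem_map.2 ⟨p, hp, (el_spec hok).1.symm⟩)
  refine ⟨fun h => List.mem_filter.2 ⟨(mem_sub h7).1 hx, ?_⟩,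
    fun h => List.mem_filter.2 ⟨(mem_sub h7).1 hx, ?_⟩⟩
  all_goals rw [List.all_eq_true]
  all_goals intro p hp
  all_goals have hok := List.all_eq_true.1 hb' p hp
  · rw [beq_iff_eq, ← (el_spec hok).1, ← cm_mul, ← cm_mul, (h _ (hmem p hp)).eq]
  · rw [List.any_eq_true]
    refine ⟨_, (mem_sub hb).1 (h _ (hmem p hp)), ?_⟩
    rw [beq_iff_eq, ← (el_spec hok).1, ← cm_mul, ← cm_mul, inv_mul_cancel_right]

/-- The standard Sylow 2-subgroup. -/
noncomputable def sylTwoM : Sylow 2 M := haveI : Fact (Nat.Prime 2) := ⟨Nat.prime_two⟩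
  Sylow.ofCard syl (by rw [card_syl, CfsgLib.Mathieu.card_M22, factor_two]; norm_num)

theorem exists_conj_le_syl {K : Subgroup M} (hK : IsPGroup 2 K) : ∃ t : M, conjS t K ≤ syl := by
  have : Fact (Nat.Prime 2) := ⟨Nat.prime_two⟩
  obtain ⟨S, hS⟩ := hK.exists_le_sylow
  obtain ⟨t, ht⟩ := MulAction.exists_smul_eq M S sylTwoM
  refine ⟨t, ?_⟩
  rintro _ ⟨x, hx, rfl⟩
  show MulAut.conj t x ∈ (sylTwoM : Subgroup M)
  rw [← ht]
  exact Subgroup.mem_map_of_mem _ (hS hx)

theorem sq_conjS {A : Subgroup M} (hA : ∀ a ∈ A, a * a = 1) (t : M) :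
    ∀ a ∈ conjS t A, a * a = 1 := by
  rintro _ ⟨a, ha, rfl⟩
  show MulAut.conj t a * MulAut.conj t a = 1
  rw [← map_mul, hA a ha, map_one]

theorem card_le_sixteen {A T : Subgroup M} (hA : ∀ a ∈ A, a * a = 1) (hc : Nat.card A = 8)
    (hT : IsPGroup 2 T) (hAT : A ≤ T) (hcomm : ∀ x ∈ T, ∀ a ∈ A, Commute x a) :
    Nat.card T ≤ 16 := by
  obtain ⟨t, ht⟩ := exists_conj_le_syl hT
  obtain ⟨b, hb, hAb⟩ := exists_listed (sq_conjS hA t) (by rw [card_conjS, hc])
    ((Subgroup.map_mono hAT).trans ht)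
  have hok := List.all_eq_true.1 eight_ok b hb
  simp only [eightCheck, Bool.and_eq_true, decide_eq_true_eq] at hok
  obtain ⟨⟨⟨⟨hpc, hel⟩, -⟩, h16⟩, -⟩ := hok
  rw [← card_conjS t T]
  refine (natCard_le_of_codes fun x hx => (le_codes hpc hel (ht hx)).1 ?_).trans h16
  rw [← hAb]
  rintro _ ⟨a, ha, rfl⟩
  obtain ⟨y, hy, rfl⟩ := hx
  exact (hcomm y hy a ha).map (MulAut.conj t).toMonoidHom

/-- Elements of two-power order centralising the subgroup lie in it. -/
theorem eight_self_centralizing {A : Subgroup M} (hA : ∀ a ∈ A, a * a = 1) (hc : Nat.card A = 8)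
    (h7 : 7 ∣ Nat.card (Subgroup.normalizer (A : Set M))) {T : Subgroup M} (hT : IsPGroup 2 T)
    (hTc : T ≤ Subgroup.centralizer (A : Set M)) : T ≤ A := by
  classical
  have : Fact (Nat.Prime 2) := ⟨Nat.prime_two⟩
  have : Fact (Nat.Prime 7) := ⟨by norm_num⟩
  set N := Subgroup.normalizer (A : Set M)
  set C := Subgroup.centralizer (A : Set M)
  have hAC : A ≤ C := fun a ha => Subgroup.mem_centralizer_iff.2 fun b hb => comm_of_sq hA hb ha
  obtain ⟨a₀, ha₀, ha₀1⟩ : ∃ a ∈ A, a ≠ 1 := by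
    refine (Subgroup.bot_or_exists_ne_one A).resolve_left fun h => ?_
    rw [h, Subgroup.card_bot] at hc; norm_num at hc
  have ho₀ : orderOf a₀ = 2 := orderOf_eq_prime (by rw [pow_two, hA a₀ ha₀]) ha₀1
  have hC7 : ¬ 7 ∣ Nat.card C := by
    intro hd
    obtain ⟨g, hg⟩ := exists_prime_orderOf_dvd_card' (G := C) 7 hd
    exact seven_not_commute ((Subgroup.orderOf_coe g).trans hg) ho₀
      (Subgroup.mem_centralizer_iff.1 g.2 a₀ ha₀).symm
  have hCN : C ≤ N := fun g hg => Subgroup.mem_normalizer_iff.2 fun x => by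
    constructor
    · intro hx; rw [← Subgroup.mem_centralizer_iff.1 hg x hx, mul_inv_cancel_right]; exact hx
    · intro hx
      have e : x = g * x * g⁻¹ := by
        have := Subgroup.mem_centralizer_iff.1 hg _ hx
        exact mul_left_cancel (a := g) (by rw [← this, inv_mul_cancel_right])
      rw [e]; exact hx
  -- a Sylow subgroup of the centraliser containing both
  have hTA : IsPGroup 2 ↥(A ⊔ T) := by
    refine IsPGroup.to_sup_of_normal_left' ?_ hT ((hTc.trans hCN))
    exact fun b => ⟨1, Subtype.ext (by simpa [pow_two] using hA b.1 b.2)⟩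
  obtain ⟨S, hS⟩ := (hTA.comap_of_injective C.subtype (Subgroup.subtype_injective _)).exists_le_sylow
  set S' := (S : Subgroup C).map C.subtype
  have hle : A ⊔ T ≤ S' := fun x hx => ⟨⟨x, (sup_le hAC hTc) hx⟩, hS hx, rfl⟩
  have hScomm : ∀ x ∈ S', ∀ a ∈ A, Commute x a := by
    rintro _ ⟨x, -, rfl⟩ a ha
    exact (Subgroup.mem_centralizer_iff.1 x.2 a ha).symm
  have hSp : IsPGroup 2 S' := S.isPGroup'.map _
  obtain ⟨j, hj⟩ := IsPGroup.iff_card.1 hSp
  have h8 : 8 ∣ Nat.card S' := hc ▸ Subgroup.card_dvd_of_le (le_sup_left.trans hle)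
  have h16 := card_le_sixteen hA hc hSp (le_sup_left.trans hle) hScomm
  by_cases hS8 : Nat.card S' = 8
  · rw [Subgroup.eq_of_le_of_card_ge (le_sup_left.trans hle) (by rw [hS8, hc])]
    exact le_sup_right.trans hle
  exfalso
  have hS16 : Nat.card S' = 16 := by
    obtain ⟨k, hk⟩ := h8
    have : 0 < Nat.card S' := Nat.card_pos
    interval_cases hk' : Nat.card S' <;> first | rfl | omega
  -- Frattini
  let C' := C.subgroupOf N
  have : C'.Normal := ⟨fun x hx g => by
    have hn := g.2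
    show (g : M) * x * (g : M)⁻¹ ∈ C
    rw [Subgroup.mem_centralizer_iff]
    intro a ha
    have ha' : (g : M)⁻¹ * a * g ∈ A := (Subgroup.mem_normalizer_iff''.1 hn a).1 ha
    have := Subgroup.mem_centralizer_iff.1 (show (x : M) ∈ C from hx) _ ha'
    calc a * ((g : M) * x * (g : M)⁻¹) = g * ((g : M)⁻¹ * a * g * x) * (g : M)⁻¹ := by group
      _ = g * (x * ((g : M)⁻¹ * a * g)) * (g : M)⁻¹ := by rw [this]
      _ = _ := by group⟩
  let e : C' ≃* C := Subgroup.subgroupOfEquivOfLe hCN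
  let S₁ : Sylow 2 C' := S.mapSurjective (f := e.symm.toMonoidHom) e.symm.surjective
  have hfr := Sylow.normalizer_sup_eq_top S₁
  set K := Subgroup.normalizer (((S₁ : Subgroup C').map C'.subtype : Subgroup N) : Set N)
  have h7K : 7 ∣ Nat.card K := by
    have hN : Nat.card N ∣ Nat.card K * Nat.card C' := by
      have h2 : C'.index = C'.relIndex K := by
        rw [← Subgroup.relIndex_top_right, ← hfr, sup_comm, Subgroup.relIndex_sup_left]
      rw [← Subgroup.card_mul_index C', h2, mul_comm (Nat.card K)]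
      exact Nat.mul_dvd_mul_left _ (Subgroup.relIndex_dvd_card _ _)
    rcases (Nat.Prime.dvd_mul (by norm_num)).1 (h7.trans hN) with h | h
    · exact h
    · exact absurd (Nat.card_congr e.toEquiv ▸ h) hC7
  obtain ⟨g, hg⟩ := exists_prime_orderOf_dvd_card' (G := K) 7 h7K
  set γ : M := ((g : N) : M) with hγ
  have hgo : orderOf γ = 7 := by rw [hγ, Subgroup.orderOf_coe, Subgroup.orderOf_coe, hg]
  have hmap : ((S₁ : Subgroup C').map C'.subtype).map N.subtype = S' := by
    ext x
    constructor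
    · rintro ⟨_, ⟨y, hy, rfl⟩, rfl⟩
      obtain ⟨w, hw, rfl⟩ := hy
      exact ⟨w, hw, rfl⟩
    · rintro ⟨w, hw, rfl⟩
      exact ⟨_, ⟨e.symm w, ⟨w, hw, rfl⟩, rfl⟩, rfl⟩
  have hnorm : ∀ x ∈ S', γ * x * γ⁻¹ ∈ S' := by
    intro x hx
    rw [← hmap] at hx ⊢
    obtain ⟨y, hy, rfl⟩ := hx
    exact ⟨(g : N) * y * (g : N)⁻¹, (Subgroup.mem_normalizer_iff.1 g.2 y).1 hy, rfl⟩
  let f : S' → S' := fun x => ⟨γ * x * γ⁻¹, hnorm x x.2⟩
  have hit : ∀ (k : ℕ) (x : S'), ((f^[k] x : S') : M) = γ ^ k * x * (γ ^ k)⁻¹ := by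
    intro k x
    induction k with
    | zero => simp
    | succ k ih =>
      rw [Function.iterate_succ_apply']
      show γ * (f^[k] x).1 * γ⁻¹ = _
      rw [ih, pow_succ']; group
  have hmod := CfsgLib.J4Type67.card_modEq f (q := 7) (n := 1) (by norm_num) fun x =>
    Subtype.ext (by rw [hit, pow_one, ← hgo, pow_orderOf_eq_one]; simp)
  rw [hS16] at hmod
  have h2 : 2 ≤ Nat.card {x : S' // f x = x} := by
    unfold Nat.ModEq at hmod; omega
  have : Nontrivial {x : S' // f x = x} := Finite.one_lt_card_iff_nontrivial.1 (by omega)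
  obtain ⟨x, hx1⟩ := exists_ne (⟨1, Subtype.ext (by simp [f])⟩ : {x : S' // f x = x})
  have hx1' : x.1.1 ≠ 1 := fun h => hx1 (Subtype.ext (Subtype.ext h))
  have hcx : Commute γ x.1.1 := mul_inv_eq_iff_eq_mul.1 (congrArg Subtype.val x.2)
  obtain ⟨k, hk⟩ := (IsPGroup.iff_orderOf.1 hSp) x.1
  rw [← Subgroup.orderOf_coe] at hk
  have hk1 : k ≠ 0 := fun h => hx1' (orderOf_eq_one_iff.1 (by rw [hk, h, pow_zero]))
  refine seven_not_commute hgo ?_ (hcx.pow_right (2 ^ (k - 1)))
  rw [orderOf_pow' _ (by positivity), hk]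
  have : 2 ^ k = 2 ^ (k - 1) * 2 := by rw [← pow_succ]; congr 1; omega
  rw [this, Nat.gcd_mul_right_left, Nat.mul_div_cancel_left _ (by positivity)]

/-- **Splitting.** -/
theorem exists_complement_eight {A : Subgroup M} (hA : ∀ a ∈ A, a * a = 1) (hc : Nat.card A = 8)
    (h : 2 ^ 6 * 7 ∣ Nat.card (Subgroup.normalizer (A : Set M))) :
    ∃ K : Subgroup M, K ≤ Subgroup.normalizer (A : Set M) ∧ K ⊓ A = ⊥ ∧
      A ⊔ K = Subgroup.normalizer (A : Set M) := by
  classical
  have : Fact (Nat.Prime 2) := ⟨Nat.prime_two⟩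
  set N := Subgroup.normalizer (A : Set M)
  have hAN : A ≤ N := Subgroup.le_normalizer
  have hAp : IsPGroup 2 A := fun b => ⟨1, Subtype.ext (by simpa [pow_two] using hA b.1 b.2)⟩
  let A' := A.subgroupOf N
  have hA'n : A'.Normal := (Subgroup.normal_subgroupOf_iff hAN).2 fun x n hx hn =>
    (Subgroup.mem_normalizer_iff.1 hn x).1 hx
  obtain ⟨S⟩ := (Sylow.nonempty : Nonempty (Sylow 2 N))
  have hA'p : IsPGroup 2 A' := hAp.comap_of_injective N.subtype (Subgroup.subtype_injective _)
  have hAS : A' ≤ (S : Subgroup N) := hA'p.le_sylow_of_normal S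
  set SN := (S : Subgroup N).map N.subtype
  have hASN : A ≤ SN := fun x hx => ⟨⟨x, hAN hx⟩, hAS hx, rfl⟩
  have hSNc : Nat.card SN = Nat.card (S : Subgroup N) :=
    Subgroup.card_map_of_injective (Subgroup.subtype_injective _)
  obtain ⟨t, ht⟩ := exists_conj_le_syl (K := SN) (S.isPGroup'.map _)
  obtain ⟨b, hb, hAb⟩ := exists_listed (sq_conjS hA t) (by rw [card_conjS, hc])
    ((Subgroup.map_mono hASN).trans ht)
  have hok := List.all_eq_true.1 eight_ok b hb
  simp only [eightCheck, Bool.and_eq_true, Bool.or_eq_true, decide_eq_true_eq, beq_iff_eq,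
    List.any_eq_true] at hok
  obtain ⟨⟨⟨⟨hpc, hel⟩, -⟩, -⟩, hcases⟩ := hok
  have h64 : 64 ≤ Nat.card SN := by
    rw [hSNc, S.card_eq_multiplicity]
    have h6 : 6 ≤ (Nat.card N).factorization 2 :=
      (Nat.Prime.pow_dvd_iff_le_factorization Nat.prime_two Nat.card_pos.ne').1
        ((Dvd.intro 7 rfl).trans h)
    calc 64 = 2 ^ 6 := by norm_num
      _ ≤ _ := Nat.pow_le_pow_right (by norm_num) h6
  have hnormal : ∀ x ∈ conjS t SN, cm x ∈ normL b := fun x hx => (le_codes hpc hel (ht hx)).2 (by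
    rw [← hAb]
    rintro _ ⟨a, ha, rfl⟩
    obtain ⟨y, ⟨y', -, rfl⟩, rfl⟩ := hx
    refine ⟨y' * a * (y' : M)⁻¹, (Subgroup.mem_normalizer_iff.1 y'.2 a).1 ha, ?_⟩
    simp [mul_assoc])
  have hcent8 : (centL b).length ≤ 8 := by
    let T : Subgroup M :=
      conjS t⁻¹ (syl ⊓ Subgroup.centralizer (conjS t A : Set M))
    have hTA : T ≤ A := by
      refine eight_self_centralizing hA hc ((Dvd.intro_left _ rfl).trans h) ?_ ?_
      · refine IsPGroup.map (IsPGroup.to_le ?_ inf_le_left) _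
        exact IsPGroup.of_card (n := 7) (by rw [card_syl]; norm_num)
      · rintro _ ⟨x, hx, rfl⟩
        rw [Subgroup.mem_centralizer_iff]
        intro a ha
        have h' := Subgroup.mem_centralizer_iff.1 hx.2 (t * a * t⁻¹) ⟨a, ha, rfl⟩
        show a * (t⁻¹ * x * t⁻¹⁻¹) = t⁻¹ * x * t⁻¹⁻¹ * a
        calc a * (t⁻¹ * x * t⁻¹⁻¹) = t⁻¹ * (t * a * t⁻¹ * x) * t := by group
          _ = t⁻¹ * (x * (t * a * t⁻¹)) * t := by rw [h']
          _ = _ := by group
    obtain ⟨-, -, -, -, -, -, h7, h7', -, -, -⟩ := basis_ok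
    have hcard := Subgroup.card_le_of_le hTA
    rw [card_conjS, hc] at hcard
    refine le_trans (le_of_eq ?_) hcard
    refine (List.toFinset_card_of_nodup (l := centL b)
      (List.Nodup.filter _ (spanSpec _ h7).nodup)).symm.trans ?_
    rw [← Nat.card_eq_finsetCard]
    refine (Nat.card_congr (Equiv.ofBijective
      (fun x : ↥(syl ⊓ Subgroup.centralizer (conjS t A : Set M)) =>
        (⟨cm x.1, List.mem_toFinset.2 ((le_codes hpc hel x.2.1).1 fun a ha =>
          (Subgroup.mem_centralizer_iff.1 x.2.2 a (hAb.symm ▸ ha)).symm)⟩ : (centL b).toFinset))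
      ⟨fun x y e => Subtype.ext (cm_injective (congrArg Subtype.val e)), fun ⟨c, hc'⟩ => ?_⟩)).symm
    obtain ⟨hc1, hc2⟩ := List.mem_filter.1 (List.mem_toFinset.1 hc')
    obtain ⟨σ, rfl⟩ := (spanSpec _ h7).exists_code c hc1
    have hσ : σ ∈ Cfsg.Spor.M22 := grpOf_le h7' (((spanSpec _ h7).mem_iff σ).2 hc1)
    refine ⟨⟨⟨σ, hσ⟩, (mem_sub h7).2 hc1, Subgroup.mem_centralizer_iff.2 fun a ha => ?_⟩, rfl⟩
    have ha' : a ∈ sub b := hAb ▸ ha
    have hle : sub b ≤ Subgroup.centralizer ({⟨σ, hσ⟩} : Set M) := by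
      intro y hy
      have : (y : Equiv.Perm GolayPt) ∈ Subgroup.centralizer ({σ} : Set (Equiv.Perm GolayPt)) := by
        refine (?_ : grpOf b ≤ _) hy
        rw [grpOf, Subgroup.closure_le]
        intro g hg
        obtain ⟨p, hp, hpg⟩ := List.mem_map.1 hg
        refine Subgroup.mem_centralizer_singleton_iff.2 (code_injective ?_)
        rw [code_mul, code_mul, ← hpg]
        exact (beq_iff_eq.1 (List.all_eq_true.1 hc2 p hp)).symm
      rw [Subgroup.mem_centralizer_singleton_iff] at this ⊢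
      exact Subtype.ext this
    exact Subgroup.mem_centralizer_singleton_iff.1 (hle ha')
  have hnorm64 := (le_trans h64 (card_conjS t SN ▸ natCard_le_of_codes hnormal))
  rcases hcases with (hcase | hcase) | ⟨hlen, k, hk, ⟨⟨⟨hkpc, hkel⟩, hklen⟩, hkall⟩⟩
  · omega
  · omega
  have hSN64 : Nat.card SN = 64 :=
    le_antisymm ((card_conjS t SN ▸ natCard_le_of_codes hnormal).trans_eq hlen) h64
  -- the normalising part of the Sylow subgroup is the conjugate of the Sylow subgroup
  have hkSN : sub k ≤ conjS t SN := by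
    intro x hx
    have hx' := List.all_eq_true.1 hkall _ ((mem_sub hkpc).1 hx)
    simp only [Bool.and_eq_true, List.contains_eq_mem, decide_eq_true_eq] at hx'
    obtain ⟨y, hy, e⟩ : ∃ y ∈ conjS t SN, cm y = cm x := by
      by_contra! hne
      have h1 := natCard_le_of_codes (K := conjS t SN) (l := (normL b).erase (cm x))
        fun y hy => (List.mem_erase_of_ne (hne y hy)).2 (hnormal y hy)
      rw [card_conjS, hSN64, List.length_erase_of_mem hx'.1, hlen] at h1
      omega
    rwa [← cm_injective e]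
  set K₀ := conjS t⁻¹ (sub k) with hK₀
  have hK₀SN : K₀ ≤ SN := by
    rintro _ ⟨x, hx, rfl⟩
    obtain ⟨y, hy, rfl⟩ := hkSN hx
    simpa [mul_assoc] using hy
  have hK₀c : Nat.card K₀ = 8 := by rw [hK₀, card_conjS, card_sub hkpc hkel, hklen]; norm_num
  have hK₀A : K₀ ⊓ A = ⊥ := by
    rw [eq_bot_iff]
    rintro _ ⟨⟨x, hx, rfl⟩, hxA⟩
    rw [Subgroup.mem_bot]
    have hxA' : x ∈ sub b := by
      rw [← hAb]
      exact ⟨_, hxA, by simp [mul_assoc]⟩
    have hx' := List.all_eq_true.1 hkall _ ((mem_sub hkpc).1 hx)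
    simp only [Bool.and_eq_true, Bool.or_eq_true, beq_iff_eq, Bool.not_eq_true',
      List.contains_eq_mem, decide_eq_false_iff_not] at hx'
    rcases hx'.2 with h' | h'
    · rw [cm_injective (h'.trans cm_one.symm), map_one]
    · exact absurd ((mem_sub hpc).1 hxA') h'
  -- Gaschuetz
  have : IsMulCommutative A' := ⟨⟨fun x y => Subtype.ext (Subtype.ext
    (comm_of_sq hA (x.2 : (x.1 : M) ∈ A) (y.2 : (y.1 : M) ∈ A)))⟩⟩
  have hK₀N : K₀ ≤ N := hK₀SN.trans (Subgroup.map_subtype_le _)
  have hUS : A' ⊔ K₀.subgroupOf N = (S : Subgroup N) := by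
    have hle : A' ⊔ K₀.subgroupOf N ≤ (S : Subgroup N) := by
      refine sup_le hAS fun x hx => ?_
      obtain ⟨y, hy, e⟩ := hK₀SN hx
      rwa [← N.subtype_injective e]
    refine Subgroup.eq_of_le_of_card_ge hle ?_
    rw [← hSNc, hSN64]
    have h1 := CfsgLib.J4Type67.mul_card_le (A := A') (B := K₀.subgroupOf N)
      (C := A' ⊔ K₀.subgroupOf N) le_sup_left le_sup_right
    rw [Nat.card_congr (Subgroup.subgroupOfEquivOfLe hAN).toEquiv, hc,
      Nat.card_congr (Subgroup.subgroupOfEquivOfLe hK₀N).toEquiv, hK₀c,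
      show A' ⊓ K₀.subgroupOf N = ⊥ by
        rw [eq_bot_iff]; rintro x ⟨hx1, hx2⟩
        have : (x : M) ∈ (⊥ : Subgroup M) := hK₀A ▸ Subgroup.mem_inf.2 ⟨hx2, hx1⟩
        exact Subgroup.mem_bot.2 (Subtype.ext (Subgroup.mem_bot.1 this)),
      Subgroup.card_bot, one_mul] at h1
    exact h1
  obtain ⟨H, hH⟩ := CfsgLib.Solvable.Gaschuetz.exists_complement (K := A') (S : Subgroup N)
    (K₀.subgroupOf N) hAS (by
      rw [Nat.card_congr (Subgroup.subgroupOfEquivOfLe hAN).toEquiv, hc,
        show (8 : ℕ) = 2 ^ 3 by norm_num]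
      exact Nat.Coprime.pow_left 3
        (Nat.prime_two.coprime_iff_not_dvd.2 (Sylow.not_dvd_index S))) (by
      rw [eq_bot_iff]; rintro x ⟨hx1, hx2⟩
      have : (x : M) ∈ (⊥ : Subgroup M) := hK₀A ▸ Subgroup.mem_inf.2 ⟨hx1, hx2⟩
      exact Subgroup.mem_bot.2 (Subtype.ext (Subgroup.mem_bot.1 this))) hUS
  refine ⟨H.map N.subtype, Subgroup.map_subtype_le _, ?_, ?_⟩
  · rw [eq_bot_iff]
    rintro _ ⟨⟨x, hx, rfl⟩, hxA⟩
    have : x ∈ (⊥ : Subgroup N) := hH.disjoint.le_bot (show x ∈ A' ⊓ H from ⟨hxA, hx⟩)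
    rw [Subgroup.mem_bot] at this
    rw [this]; exact one_mem _
  · refine le_antisymm (sup_le hAN (Subgroup.map_subtype_le _)) fun x hx => ?_
    obtain ⟨⟨a, k'⟩, e⟩ := hH.2 ⟨x, hx⟩
    have e' : (a.1 : M) * (k'.1 : M) = x := congrArg Subtype.val e
    rw [← e']
    exact mul_mem (Subgroup.mem_sup_left a.2) (Subgroup.mem_sup_right ⟨_, k'.2, rfl⟩)

end CfsgLib.Jf18.M22
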